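import Mathlib

/-! The arithmetic condition on Dickson pairs `(q, n)`. -/

namespace Cfsg.Agent.DicksonPair

open Finset

/-- `1 + q + ⋯ + q ^ (i - 1)`. -/
def S (q i : ℕ) : ℕ := ∑ j ∈ range i, q ^ j

theorem S_mul (q i : ℕ) (hq : 1 ≤ q) : S q i * (q - 1) = q ^ i - 1 := geom_sum_mul_of_one_le hq i

theorem modEq_iff (q n i : ℕ) (hq : 2 ≤ q) : q ^ i ≡ 1 [MOD n * (q - 1)] ↔ n ∣ S q i := by
  rw [Nat.ModEq.comm, Nat.modEq_iff_dvd' (Nat.one_le_pow _ _ (by omega)), ← S_mul q i (by omega),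
    Nat.mul_dvd_mul_iff_right (by omega)]

theorem dvd_S_mul {q d e : ℕ} (hq : 2 ≤ q) (f : ℕ) (h : d ∣ S q e) : d ∣ S q (e * f) := by
  rw [← modEq_iff q d _ hq] at h ⊢
  rw [pow_mul]
  simpa using h.pow f

theorem cast_S_eq {q r : ℕ} (hq : 2 ≤ q) (hrq : r ∣ q - 1) (i : ℕ) : ((S q i : ℕ) : ZMod r) = i := by
  have h1 : (q : ZMod r) = 1 := by
    rw [← Nat.sub_add_cancel (show 1 ≤ q by omega), Nat.cast_add,
      (ZMod.natCast_eq_zero_iff _ _).mpr hrq, Nat.cast_one, zero_add]
  simp [S, h1]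

theorem val_S {q r i : ℕ} (hr : r.Prime) (hq : 2 ≤ q) (hi : i ≠ 0) (hrq : r ∣ q - 1)
    (hgood : r = 2 → 4 ∣ q - 1) : padicValNat r (S q i) = padicValNat r i := by
  haveI := Fact.mk hr
  have hS : 0 < S q i := by
    rcases Nat.eq_zero_or_pos (S q i) with h | h
    · have := S_mul q i (by omega)
      rw [h, zero_mul] at this
      have : 1 < q ^ i := Nat.one_lt_pow hi (by omega)
      omega
    · exact h
  have hnd : ¬ r ∣ q := fun h => by
    have := Nat.dvd_sub h hrq
    rw [show q - (q - 1) = 1 by omega] at this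
    exact hr.one_lt.ne' (Nat.dvd_one.mp this)
  have hmul : padicValNat r (q ^ i - 1) = padicValNat r (S q i) + padicValNat r (q - 1) := by
    rw [← S_mul q i (by omega), padicValNat.mul hS.ne' (by omega)]
  rcases eq_or_ne r 2 with rfl | hr2
  · have h4 := hgood rfl
    rcases Nat.even_or_odd i with hev | hodd
    · have h := padicValNat.pow_two_sub_one (x := q) (n := i) (by omega) hnd hi hev
      have hv : padicValNat 2 (q + 1) = 1 := by
        obtain ⟨m, hm⟩ := h4
        rw [show q + 1 = 2 * (2 * m + 1) by omega, padicValNat.mul (by omega) (by omega),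
          padicValNat.self (by omega), padicValNat.eq_zero_of_not_dvd (by omega)]
      omega
    · have h2 : ¬ 2 ∣ S q i := by
        rw [← ZMod.natCast_eq_zero_iff, cast_S_eq hq hrq, ZMod.natCast_eq_zero_iff]
        exact fun h => Nat.not_even_iff_odd.mpr hodd (even_iff_two_dvd.mpr h)
      rw [padicValNat.eq_zero_of_not_dvd h2,
        padicValNat.eq_zero_of_not_dvd fun h => Nat.not_even_iff_odd.mpr hodd
          (even_iff_two_dvd.mpr h)]
  · have hodd : Odd r := hr.odd_of_ne_two hr2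
    have h := padicValNat.pow_sub_pow hodd (x := q) (y := 1) (by omega) hrq hnd hi
    rw [one_pow] at h
    omega

theorem exists_le {q m : ℕ} (hm : 0 < m) (hco : Nat.Coprime q m) :
    ∃ e, 0 < e ∧ e ≤ m ∧ m ∣ S q e := by
  haveI : NeZero m := ⟨hm.ne'⟩
  obtain ⟨i, j, hij, he⟩ := Fintype.exists_ne_map_eq_of_card_lt
    (fun i : Fin (m + 1) => ((S q i : ℕ) : ZMod m)) (by simp)
  wlog hlt : (i : ℕ) < j generalizing i j with H
  · refine H j i hij.symm he.symm ?_
    have : (i : ℕ) ≠ j := fun e => hij (Fin.ext e)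
    omega
  refine ⟨(j : ℕ) - i, by omega, by omega, ?_⟩
  rw [← ZMod.natCast_eq_zero_iff]
  have hsplit : S q j = S q i + q ^ (i : ℕ) * S q (j - i) := by
    rw [S, S, S, show (j : ℕ) = i + (j - i) by omega, Finset.sum_range_add, Finset.mul_sum]
    simp [pow_add]
  simp only [hsplit, Nat.cast_add, Nat.cast_mul, Nat.cast_pow, left_eq_add] at he
  have hu : IsUnit ((q : ZMod m) ^ (i : ℕ)) := ((ZMod.isUnit_iff_coprime q m).mpr hco).pow _
  exact (hu.mul_right_eq_zero).mp he

theorem two_step {q : ℕ} (hq : Odd q) (h4 : 4 ∣ q + 1) (b : ℕ) :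
    2 ^ (b + 2) * (q - 1) ∣ q ^ (2 ^ (b + 1)) - 1 := by
  induction b with
  | zero =>
    rw [show (2 : ℕ) ^ (0 + 1) = 2 from rfl, show q ^ 2 - 1 = (q + 1) * (q - 1) by
      rw [← Nat.sq_sub_sq, one_pow]]
    exact mul_dvd_mul (by simpa using h4) (dvd_refl _)
  | succ b ih =>
    have h2 : 2 ∣ q ^ (2 ^ (b + 1)) + 1 := (hq.pow.add_odd odd_one).two_dvd
    rw [show 2 ^ (b + 1 + 1) = 2 ^ (b + 1) * 2 from rfl, pow_mul,
      show (q ^ 2 ^ (b + 1)) ^ 2 - 1 = (q ^ 2 ^ (b + 1) + 1) * (q ^ 2 ^ (b + 1) - 1) by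
        rw [← Nat.sq_sub_sq, one_pow],
      show 2 ^ (b + 1 + 2) * (q - 1) = 2 * (2 ^ (b + 2) * (q - 1)) by ring]
    exact mul_dvd_mul h2 ih

theorem dickson (q n : ℕ) (hq : IsPrimePow q) (hn : 1 < n) :
    ((∀ r : ℕ, r.Prime → r ∣ n → r ∣ q - 1) ∧ (4 ∣ n → 4 ∣ q - 1)) ↔
      (q ^ n ≡ 1 [MOD n * (q - 1)] ∧
        ∀ i : ℕ, 0 < i → i < n → ¬ q ^ i ≡ 1 [MOD n * (q - 1)]) := by
  have hq2 : 2 ≤ q := hq.two_le
  simp only [modEq_iff q n _ hq2]
  constructor
  · rintro ⟨h1, h4⟩
    have key : ∀ i, 0 < i → (n ∣ S q i ↔ n ∣ i) := by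
      intro i hi
      rw [Nat.dvd_iff_prime_pow_dvd_dvd, Nat.dvd_iff_prime_pow_dvd_dvd (d := n)]
      refine forall_congr' fun r => forall_congr' fun k => forall_congr' fun hr =>
        forall_congr' fun hk => ?_
      rcases Nat.eq_zero_or_pos k with rfl | hk0
      · simp
      have hrn : r ∣ n := (dvd_pow_self r hk0.ne').trans hk
      haveI := Fact.mk hr
      by_cases hbad : r = 2 ∧ ¬ 4 ∣ n
      · obtain ⟨rfl, h4n⟩ := hbad
        have hk1 : k = 1 := by
          by_contra hne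
          exact h4n ((pow_dvd_pow 2 (show 2 ≤ k by omega)).trans hk)
        subst hk1
        rw [pow_one, ← ZMod.natCast_eq_zero_iff, ← ZMod.natCast_eq_zero_iff,
          cast_S_eq hq2 (h1 2 hr hrn)]
      · have hv := val_S hr hq2 hi.ne' (h1 r hr hrn)
          (fun e => h4 (not_not.mp fun h => hbad ⟨e, h⟩))
        have hS : S q i ≠ 0 := by
          intro h0
          have := S_mul q i (by omega)
          rw [h0, zero_mul] at this
          have : 1 < q ^ i := Nat.one_lt_pow hi.ne' (by omega)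
          omega
        rw [padicValNat_dvd_iff_le hS, padicValNat_dvd_iff_le hi.ne', hv]
    exact ⟨(key n (by omega)).mpr dvd_rfl,
      fun i hi hin h => absurd (Nat.le_of_dvd hi ((key i hi).mp h)) (by omega)⟩
  · rintro ⟨hdvd, hmin⟩
    have hcoq : Nat.Coprime q n := by
      refine Nat.coprime_of_dvd fun r hr hrq hrn => ?_
      have h := (hrn.trans hdvd).trans (dvd_mul_right (S q n) (q - 1))
      rw [S_mul q n (by omega)] at h
      have hr1 := Nat.dvd_sub (dvd_pow hrq (show n ≠ 0 by omega)) h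
      rw [show q ^ n - (q ^ n - 1) = 1 by
        have := Nat.one_le_pow n q (by omega); omega] at hr1
      exact hr.one_lt.ne' (Nat.dvd_one.mp hr1)
    have combine : ∀ r : ℕ, r.Prime → r ∣ n →
        ∀ e, 0 < e → e < r ^ n.factorization r → r ^ n.factorization r ∣ S q e → False := by
      intro r hr hrn e he hlt hd
      set m := n / r ^ n.factorization r with hm
      have hnm : r ^ n.factorization r * m = n := Nat.ordProj_mul_ordCompl_eq_self n r
      have hm0 : 0 < m := Nat.ordCompl_pos r (by omega)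
      have hmn : m ∣ n := Dvd.intro_left _ hnm
      obtain ⟨f, hf0, hfm, hfd⟩ := exists_le hm0 (hcoq.coprime_dvd_right hmn)
      apply hmin (e * f) (Nat.mul_pos he hf0)
      · calc e * f < r ^ n.factorization r * f := Nat.mul_lt_mul_of_pos_right hlt hf0
          _ ≤ r ^ n.factorization r * m := Nat.mul_le_mul_left _ hfm
          _ = n := hnm
      · rw [← hnm]
        refine Nat.Coprime.mul_dvd_of_dvd_of_dvd ?_ (dvd_S_mul hq2 f hd)
          (mul_comm e f ▸ dvd_S_mul hq2 e hfd)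
        exact (Nat.coprime_ordCompl hr (by omega)).pow_left _
    have hA : ∀ r : ℕ, r.Prime → r ∣ n → r ∣ q - 1 := by
      intro r hr hrn
      by_contra hrq
      set a := n.factorization r with ha
      have ha0 : 0 < a := hr.factorization_pos_of_dvd (by omega) hrn
      have hco : Nat.Coprime q (r ^ a) :=
        (hcoq.coprime_dvd_right hrn).pow_right _
      refine combine r hr hrn (Nat.totient (r ^ a))
        (Nat.totient_pos.mpr (pow_pos hr.pos _))
        (Nat.totient_lt _ (Nat.one_lt_pow ha0.ne' hr.one_lt)) ?_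
      have h := Nat.ModEq.pow_totient hco
      rw [Nat.ModEq.comm, Nat.modEq_iff_dvd' (Nat.one_le_pow _ _ (by omega)),
        ← S_mul q _ (by omega)] at h
      exact (Nat.Coprime.dvd_mul_right
        (((hr.coprime_iff_not_dvd).mpr hrq).pow_left a)).mp h
    refine ⟨hA, fun h4n => ?_⟩
    by_contra h4q
    have h2 : 2 ∣ q - 1 := hA 2 Nat.prime_two (dvd_trans (by norm_num) h4n)
    have ha : 2 ≤ n.factorization 2 :=
      (Nat.prime_two.pow_dvd_iff_le_factorization (by omega)).mp h4n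
    obtain ⟨b, hb⟩ := Nat.exists_eq_add_of_le ha
    refine combine 2 Nat.prime_two (dvd_trans (by norm_num) h4n) (2 ^ (b + 1)) (pow_pos two_pos _)
      (by rw [hb]; exact Nat.pow_lt_pow_right (by omega) (by omega)) ?_
    rw [hb, add_comm 2 b]
    have h := two_step (q := q) (Nat.odd_iff.mpr (by omega)) (by omega) b
    rw [← S_mul q _ (by omega)] at h
    exact (Nat.mul_dvd_mul_iff_right (by omega)).mp h

end Cfsg.Agent.DicksonPair
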