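import Mathlib

/-!
Pairs of elements of norm one with sum two in a finite field extension of prime degree.
-/

set_option autoImplicit false
set_option linter.unusedVariables false
set_option linter.style.haveILetI false

namespace Cfsg.Lib.NormPair

open Finset Polynomial

section Count

variable {K : Type*} [Field K] [Fintype K] [DecidableEq K]

/-- The Gauss period over a set. -/
noncomputable def period (ψ : AddChar K ℂ) (U : Finset K) (t : K) : ℂ := ∑ u ∈ U, ψ (t * u)

theorem sum_norm_sq_period {ψ : AddChar K ℂ} (hψ : ψ.IsPrimitive) (U : Finset K) :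
    ∑ t : K, ‖period ψ U t‖ ^ 2 = (Fintype.card K : ℝ) * U.card := by
  have h : ∀ t : K, ((‖period ψ U t‖ ^ 2 : ℝ) : ℂ) = ∑ u ∈ U, ∑ v ∈ U, ψ (t * (u - v)) := by
    intro t
    have h1 : (starRingEnd ℂ) (period ψ U t) = ∑ v ∈ U, ψ (-(t * v)) := by
      simp only [period, map_sum, ← AddChar.map_neg_eq_conj]
    rw [show ((‖period ψ U t‖ ^ 2 : ℝ) : ℂ) = period ψ U t * (starRingEnd ℂ) (period ψ U t) by
      rw [Complex.mul_conj']; push_cast; rfl, h1, period, Finset.sum_mul_sum]
    refine Finset.sum_congr rfl fun u _ => Finset.sum_congr rfl fun v _ => ?_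
    rw [← AddChar.map_add_eq_mul, mul_sub, sub_eq_add_neg]
  apply Complex.ofReal_injective
  rw [Complex.ofReal_sum, Finset.sum_congr rfl fun t _ => h t, Finset.sum_comm]
  simp only [Complex.ofReal_mul, Complex.ofReal_natCast]
  rw [show (Fintype.card K : ℂ) * (U.card : ℂ) = ∑ u ∈ U, (Fintype.card K : ℂ) by
    rw [Finset.sum_const, nsmul_eq_mul, mul_comm]]
  refine Finset.sum_congr rfl fun u hu => ?_
  rw [Finset.sum_comm, Finset.sum_eq_single u]
  · rw [AddChar.sum_mulShift _ hψ, if_pos (sub_self u)]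
  · intro v _ hv
    rw [AddChar.sum_mulShift _ hψ, if_neg (sub_ne_zero.2 hv.symm), Nat.cast_zero]
  · exact fun h => absurd hu h

theorem many_pairs (U : Finset K) (hU0 : ∀ u ∈ U, u ≠ 0) (hmul : ∀ u ∈ U, ∀ v ∈ U, u * v ∈ U)
    (hinv : ∀ u ∈ U, u⁻¹ ∈ U) (h2 : (2 : K) ≠ 0) (hne : U.Nonempty) :
    (U.card : ℝ) ^ 2 ≤ (Fintype.card K : ℝ) *
      (((U.filter fun u => 2 - u ∈ U).card : ℝ) + Real.sqrt (Fintype.card K)) := by
  classical
  obtain ⟨ψ, hψ1⟩ := (AddChar.exists_apply_ne_zero (α := K) (a := 1)).2 one_ne_zero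
  have hψ : ψ.IsPrimitive := AddChar.IsPrimitive.of_ne_one (AddChar.ne_one_iff.2 ⟨1, hψ1⟩)
  set n := U.card with hn
  set Q := Fintype.card K with hQ
  set R := U.filter fun u => 2 - u ∈ U with hR
  have hn0 : 0 < n := Finset.card_pos.2 hne
  -- periods are constant on cosets
  have hper : ∀ t : K, ∀ w ∈ U, period ψ U (t * w) = period ψ U t := by
    intro t w hw
    refine Finset.sum_nbij' (fun u => w * u) (fun u => w⁻¹ * u) (fun u hu => hmul w hw u hu)
      (fun u hu => hmul _ (hinv w hw) u hu) (fun u _ => ?_) (fun u _ => ?_) (fun u _ => ?_)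
    · rw [inv_mul_cancel_left₀ (hU0 w hw)]
    · rw [mul_inv_cancel_left₀ (hU0 w hw)]
    · rw [mul_assoc]
  have hmax : ∀ t : K, t ≠ 0 → ‖period ψ U t‖ ≤ Real.sqrt Q := by
    intro t ht
    refine Real.le_sqrt_of_sq_le ?_
    have h1 : (n : ℝ) * ‖period ψ U t‖ ^ 2 ≤ (Q : ℝ) * n := by
      rw [← sum_norm_sq_period hψ U]
      calc (n : ℝ) * ‖period ψ U t‖ ^ 2 = ∑ w ∈ U, ‖period ψ U (t * w)‖ ^ 2 := by
            rw [Finset.sum_congr rfl fun w hw => by rw [hper t w hw], Finset.sum_const, nsmul_eq_mul]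
        _ = ∑ s ∈ U.image (fun w => t * w), ‖period ψ U s‖ ^ 2 := by
            rw [Finset.sum_image]
            intro a _ b _ h
            exact mul_left_cancel₀ ht h
        _ ≤ _ := Finset.sum_le_univ_sum_of_nonneg fun _ => sq_nonneg _
    have hn0' : (0 : ℝ) < n := by exact_mod_cast hn0
    nlinarith [h1]
  -- the triple sum
  have hS : ∑ t : K, period ψ U t * period ψ U t * (starRingEnd ℂ) (period ψ U (2 * t)) =
      (Q : ℂ) * (n * R.card) := by
    have h1 : ∀ t : K, period ψ U t * period ψ U t * (starRingEnd ℂ) (period ψ U (2 * t)) =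
        ∑ w ∈ U, ∑ u ∈ U, ∑ v ∈ U, ψ (t * (u + v - 2 * w)) := by
      intro t
      have h0 : (starRingEnd ℂ) (period ψ U (2 * t)) = ∑ w ∈ U, ψ (-(2 * t * w)) := by
        simp only [period, map_sum, ← AddChar.map_neg_eq_conj]
      rw [h0, period, Finset.sum_mul_sum, Finset.mul_sum]
      refine Finset.sum_congr rfl fun w _ => ?_
      rw [Finset.sum_mul]
      refine Finset.sum_congr rfl fun u _ => ?_
      rw [Finset.sum_mul]
      refine Finset.sum_congr rfl fun v _ => ?_
      rw [← AddChar.map_add_eq_mul, ← AddChar.map_add_eq_mul]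
      congr 1
      ring
    rw [Finset.sum_congr rfl fun t _ => h1 t, Finset.sum_comm]
    rw [show (Q : ℂ) * (n * R.card) = ∑ w ∈ U, (Q : ℂ) * R.card by
      rw [Finset.sum_const, nsmul_eq_mul]; ring]
    refine Finset.sum_congr rfl fun w hw => ?_
    rw [Finset.sum_comm]
    calc ∑ u ∈ U, ∑ t : K, ∑ v ∈ U, ψ (t * (u + v - 2 * w))
        = ∑ u ∈ U, (if 2 * w - u ∈ U then (Q : ℂ) else 0) := by
          refine Finset.sum_congr rfl fun u _ => ?_
          rw [Finset.sum_comm, ← Finset.sum_ite_eq' U (2 * w - u) (fun _ => (Q : ℂ))]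
          refine Finset.sum_congr rfl fun v _ => ?_
          rw [AddChar.sum_mulShift _ hψ]
          by_cases h : v = 2 * w - u
          · rw [if_pos h, if_pos (by rw [h]; ring)]
          · rw [if_neg h, if_neg (fun h' => h (by rw [← sub_eq_zero, ← h']; ring)), Nat.cast_zero]
      _ = ∑ a ∈ U, (if 2 - a ∈ U then (Q : ℂ) else 0) := by
          refine (Finset.sum_nbij' (fun a => w * a) (fun u => w⁻¹ * u) (fun a ha => hmul w hw a ha)
            (fun u hu => hmul _ (hinv w hw) u hu) (fun a _ => inv_mul_cancel_left₀ (hU0 w hw) a)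
            (fun u _ => mul_inv_cancel_left₀ (hU0 w hw) u) (fun a _ => ?_)).symm
          have e : 2 * w - w * a = w * (2 - a) := by ring
          refine if_congr (Iff.symm ?_) rfl rfl
          rw [e]
          refine ⟨fun h => ?_, hmul w hw _⟩
          have := hmul _ (hinv w hw) _ h
          rwa [inv_mul_cancel_left₀ (hU0 w hw)] at this
      _ = (Q : ℂ) * R.card := by
          rw [← Finset.sum_filter, Finset.sum_const, nsmul_eq_mul, mul_comm]
  have h0 : period ψ U 0 = (n : ℂ) := by simp [period, hn]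
  rw [← Finset.add_sum_erase _ _ (Finset.mem_univ (0 : K)), mul_zero, h0, Complex.conj_natCast] at hS
  set E := ∑ t ∈ (Finset.univ.erase (0 : K)),
    period ψ U t * period ψ U t * (starRingEnd ℂ) (period ψ U (2 * t)) with hE
  have hEb : ‖E‖ ≤ Real.sqrt Q * ((Q : ℝ) * n) := by
    calc ‖E‖ ≤ ∑ t ∈ Finset.univ.erase (0 : K), Real.sqrt Q * ‖period ψ U t‖ ^ 2 := by
          refine (norm_sum_le _ _).trans (Finset.sum_le_sum fun t ht => ?_)
          rw [norm_mul, norm_mul, Complex.norm_conj, sq, mul_comm (Real.sqrt _)]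
          exact mul_le_mul_of_nonneg_left (hmax _ (mul_ne_zero h2 (Finset.ne_of_mem_erase ht)))
            (mul_self_nonneg _)
      _ ≤ ∑ t : K, Real.sqrt Q * ‖period ψ U t‖ ^ 2 :=
          Finset.sum_le_sum_of_subset_of_nonneg (Finset.erase_subset _ _)
            fun _ _ _ => mul_nonneg (Real.sqrt_nonneg _) (sq_nonneg _)
      _ = _ := by rw [← Finset.mul_sum, sum_norm_sq_period hψ U]
  have hE2 : E = ((((Q : ℝ) * (n * R.card) - (n : ℝ) * n * n : ℝ)) : ℂ) := by
    push_cast
    linear_combination hS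
  rw [hE2, Complex.norm_real, Real.norm_eq_abs] at hEb
  have h3 := (abs_le.1 hEb).1
  have hn0' : (0 : ℝ) < n := by exact_mod_cast hn0
  nlinarith [h3]

end Count

section Cubic

theorem vieta {K : Type*} [Field K] {r₁ r₂ r₃ A B C : K} (h12 : r₁ ≠ r₂) (h13 : r₁ ≠ r₃) (h23 : r₂ ≠ r₃)
    (h₁ : r₁ ^ 3 + A * r₁ ^ 2 + B * r₁ + C = 0) (h₂ : r₂ ^ 3 + A * r₂ ^ 2 + B * r₂ + C = 0)
    (h₃ : r₃ ^ 3 + A * r₃ ^ 2 + B * r₃ + C = 0) :
    r₁ * r₂ * r₃ = -C := by
  have e12 : r₁ ^ 2 + r₁ * r₂ + r₂ ^ 2 + A * (r₁ + r₂) + B = 0 := by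
    apply mul_left_cancel₀ (sub_ne_zero.2 h12)
    linear_combination h₁ - h₂
  have e13 : r₁ ^ 2 + r₁ * r₃ + r₃ ^ 2 + A * (r₁ + r₃) + B = 0 := by
    apply mul_left_cancel₀ (sub_ne_zero.2 h13)
    linear_combination h₁ - h₃
  have e : r₁ + r₂ + r₃ + A = 0 := by
    apply mul_left_cancel₀ (sub_ne_zero.2 h23)
    linear_combination e12 - e13
  linear_combination h₁ - r₁ * e12 + r₁ * r₂ * e

variable (p : ℕ) [hp : Fact p.Prime]

theorem two_ne_zero' (h : p ≠ 2) : (2 : ZMod p) ≠ 0 := by
  intro e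
  have h1 : ((2 : ℕ) : ZMod p) = 0 := by exact_mod_cast e
  rw [ZMod.natCast_eq_zero_iff] at h1
  exact h ((Nat.prime_dvd_prime_iff_eq hp.out Nat.prime_two).1 h1)

theorem exists_coeff (h : p ≠ 2) :
    ∃ c : ZMod p, ∀ r : ZMod p, r * (r - 2) * (r + c) + r - 1 ≠ 0 := by
  classical
  set S := ((Finset.univ.erase (0 : ZMod p)).erase 2).image
    (fun r => (1 - r) / (r * (r - 2)) - r)
  have hlt : S.card < (Finset.univ : Finset (ZMod p)).card := by
    refine lt_of_le_of_lt (Finset.card_image_le) ?_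
    exact lt_of_le_of_lt (Finset.card_erase_le) (Finset.card_lt_card
      (Finset.erase_ssubset (Finset.mem_univ _)))
  obtain ⟨c, -, hc⟩ := Finset.exists_mem_notMem_of_card_lt_card hlt
  refine ⟨c, fun r hr => ?_⟩
  have hr0 : r ≠ 0 := by rintro rfl; simp at hr
  have hr2 : r ≠ 2 := by
    rintro rfl
    rw [sub_self, mul_zero, zero_mul, zero_add] at hr
    exact one_ne_zero (by linear_combination hr : (1 : ZMod p) = 0)
  refine hc (Finset.mem_image.2 ⟨r, by simp [hr0, hr2], ?_⟩)
  field_simp [sub_ne_zero.2 hr2]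
  linear_combination -hr

/-- The cubic case. -/
theorem exists_cubic (h : p ≠ 2) :
    ∃ a : GaloisField p 3, a ≠ 1 ∧ Algebra.norm (ZMod p) a = 1 ∧ Algebra.norm (ZMod p) (2 - a) = 1 := by
  classical
  obtain ⟨c, hc⟩ := exists_coeff p h
  set g : (ZMod p)[X] := X ^ 3 + C (c - 2) * X ^ 2 + C (1 - 2 * c) * X + C (-1) with hg
  have hdeg : g.natDegree = 3 := by rw [hg]; compute_degree!
  have hnot : ∀ x, ¬ g.IsRoot x := fun x hx => hc x (by
    simp only [hg, IsRoot, eval_add, eval_mul, eval_pow, eval_X, eval_C] at hx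
    linear_combination hx)
  haveI hirr : Fact (Irreducible g) :=
    ⟨Polynomial.irreducible_of_degree_le_three_of_not_isRoot (by rw [hdeg]; decide) hnot⟩
  have hg0 : g ≠ 0 := fun e => by rw [e, natDegree_zero] at hdeg; omega
  haveI : Module.Finite (ZMod p) (AdjoinRoot g) := (AdjoinRoot.powerBasis hg0).finite
  obtain ⟨φ⟩ := FiniteField.nonempty_algHom_of_finrank_dvd (F := ZMod p) (K := AdjoinRoot g)
    (L := GaloisField p 3) (by
      rw [(AdjoinRoot.powerBasis hg0).finrank, AdjoinRoot.powerBasis_dim, hdeg,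
        GaloisField.finrank p (by norm_num : (3 : ℕ) ≠ 0)])
  set a := φ (AdjoinRoot.root g) with ha
  set F := algebraMap (ZMod p) (GaloisField p 3) with hF
  have hroot : a ^ 3 + F (c - 2) * a ^ 2 + F (1 - 2 * c) * a + F (-1) = 0 := by
    have h1 : aeval a g = 0 := by
      rw [ha, aeval_algHom_apply, AdjoinRoot.aeval_eq, AdjoinRoot.mk_self, map_zero]
    simpa [hg] using h1
  have hnF : ∀ x : ZMod p, a ≠ F x := by
    intro x hx
    refine hc x ?_
    apply (algebraMap (ZMod p) (GaloisField p 3)).injective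
    rw [hx] at hroot
    simp only [map_sub, map_mul, map_one, map_neg, map_ofNat, map_add, map_zero] at hroot ⊢
    linear_combination hroot
  have hpow : ∀ x : ZMod p, F x ^ p = F x := fun x => by rw [← map_pow, ZMod.pow_card]
  have hfrob : ∀ x y : GaloisField p 3, (x + y) ^ p = x ^ p + y ^ p := fun x y => add_pow_char x y p
  have hroot_next : ∀ b : GaloisField p 3, b ^ 3 + F (c - 2) * b ^ 2 + F (1 - 2 * c) * b + F (-1) = 0 →
      (b ^ p) ^ 3 + F (c - 2) * (b ^ p) ^ 2 + F (1 - 2 * c) * b ^ p + F (-1) = 0 := by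
    intro b hb
    have h1 := congrArg (· ^ p) hb
    simp only [hfrob, mul_pow, hpow, zero_pow hp.out.ne_zero, ← pow_mul] at h1 ⊢
    rw [mul_comm 3 p, mul_comm 2 p] at h1
    linear_combination h1
  -- the three roots
  haveI : Fintype (GaloisField p 3) := Fintype.ofFinite _
  have hcard : Fintype.card (GaloisField p 3) = p ^ 3 := by
    rw [← Nat.card_eq_fintype_card]; exact GaloisField.card p 3 (by norm_num)
  have hq : a ^ p ^ 3 = a := by rw [← hcard]; exact FiniteField.pow_card a
  have hinjp : Function.Injective (fun x : GaloisField p 3 => x ^ p) := frobenius_inj (GaloisField p 3) p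
  have hfix : ∀ b : GaloisField p 3, b ^ p = b → ∃ x : ZMod p, b = F x := by
    intro b hb
    by_contra hne
    push Not at hne
    set P : (GaloisField p 3)[X] := X ^ p - X
    have hP : P ≠ 0 := FiniteField.X_pow_card_sub_X_ne_zero _ hp.out.one_lt
    have hsub : (insert b (Finset.univ.image F)) ⊆ P.roots.toFinset := by
      intro y hy
      rw [Multiset.mem_toFinset, mem_roots hP, IsRoot, eval_sub, eval_pow, eval_X, sub_eq_zero]
      rcases Finset.mem_insert.1 hy with rfl | hy
      · exact hb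
      · obtain ⟨x, -, rfl⟩ := Finset.mem_image.1 hy
        exact hpow x
    have h1 := Finset.card_le_card hsub
    rw [Finset.card_insert_of_notMem (by simpa using fun x hx => hne x hx.symm),
      Finset.card_image_of_injective _ (algebraMap (ZMod p) (GaloisField p 3)).injective, Finset.card_univ,
      ZMod.card] at h1
    have h2 := h1.trans ((Multiset.toFinset_card_le _).trans (card_roots' P))
    rw [FiniteField.X_pow_card_sub_X_natDegree_eq _ hp.out.one_lt] at h2
    omega
  have h12 : a ≠ a ^ p := fun e => (hfix a e.symm).elim hnF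
  have h13 : a ≠ a ^ p ^ 2 := fun e => h12 (by
    conv_lhs => rw [← hq]
    rw [show p ^ 3 = p ^ 2 * p by ring, pow_mul, ← e])
  have h23 : a ^ p ≠ a ^ p ^ 2 := fun e => h12 (hinjp (by
    show a ^ p = (a ^ p) ^ p
    rw [← pow_mul, ← sq]; exact e))
  have hr2 := hroot_next a hroot
  have hr3 : (a ^ p ^ 2) ^ 3 + F (c - 2) * (a ^ p ^ 2) ^ 2 + F (1 - 2 * c) * a ^ p ^ 2 + F (-1) = 0 := by
    have := hroot_next _ hr2
    rwa [← pow_mul a p p, ← sq] at this
  have hnorm : ∀ b : GaloisField p 3, b * b ^ p * b ^ p ^ 2 = 1 → Algebra.norm (ZMod p) b = 1 := by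
    intro b hb
    apply (algebraMap (ZMod p) (GaloisField p 3)).injective
    rw [FiniteField.algebraMap_norm_eq_pow, map_one, GaloisField.card p 3 (by norm_num), Nat.card_zmod,
      ← hb, show (p ^ 3 - 1) / (p - 1) = 1 + p + p ^ 2 from ?_, pow_add, pow_add, pow_one]
    have h2 := hp.out.two_le
    rw [← Nat.geomSum_eq h2 3, Finset.sum_range_succ, Finset.sum_range_succ, Finset.sum_range_succ,
      Finset.sum_range_zero]
    ring
  refine ⟨a, fun e => hnF 1 (by rw [e, map_one]), hnorm a ?_, hnorm (2 - a) ?_⟩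
  · rw [vieta h12 h13 h23 hroot hr2 hr3, map_neg, map_one, neg_neg]
  · have h2p : ∀ m : ℕ, (2 - a) ^ p ^ m = 2 - a ^ p ^ m := by
      intro m
      induction m with
      | zero => simp
      | succ m ih =>
        rw [pow_succ, pow_mul, ih, sub_pow_char, ← pow_mul]
        congr 1
        have := hpow 2
        rwa [map_ofNat] at this
    have e1 := h2p 1
    rw [pow_one] at e1
    rw [e1, h2p 2]
    have hv := vieta (A := -6 - F (c - 2)) (B := 12 + 4 * F (c - 2) + F (1 - 2 * c))
      (C := -(8 + 4 * F (c - 2) + 2 * F (1 - 2 * c) + F (-1)))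
      (fun e => h12 (sub_right_injective e)) (fun e => h13 (sub_right_injective e))
      (fun e => h23 (sub_right_injective e))
      (r₁ := 2 - a) (r₂ := 2 - a ^ p) (r₃ := 2 - a ^ p ^ 2)
      (by linear_combination -hroot) (by linear_combination -hr2) (by linear_combination -hr3)
    rw [hv, hF]
    simp only [map_sub, map_mul, map_one, map_neg, map_ofNat]
    ring

end Cubic

/-- S1445. -/
theorem two_le_ncard (p q : ℕ) [hp : Fact p.Prime] [hq' : Fact q.Prime] (hp2 : p ≠ 2) (hq : q ≠ 2) :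
    2 ≤ Set.ncard {a : GaloisField p q | Algebra.norm (ZMod p) a = 1 ∧ Algebra.norm (ZMod p) (2 - a) = 1} := by
  classical
  set S := {a : GaloisField p q | Algebra.norm (ZMod p) a = 1 ∧ Algebra.norm (ZMod p) (2 - a) = 1}
  have h1 : (1 : GaloisField p q) ∈ S := by
    refine ⟨map_one _, ?_⟩
    rw [show (2 : GaloisField p q) - 1 = 1 by norm_num]; exact map_one _
  suffices hex : ∃ a ∈ S, a ≠ 1 by
    obtain ⟨a, ha, ha1⟩ := hex
    rw [← Set.ncard_pair ha1]
    exact Set.ncard_le_ncard (Set.insert_subset_iff.2 ⟨ha, Set.singleton_subset_iff.2 h1⟩) (Set.toFinite _)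
  by_cases hq3 : q = 3
  · subst hq3
    obtain ⟨a, ha1, h⟩ := exists_cubic p hp2
    exact ⟨a, h, ha1⟩
  have hq5 : 5 ≤ q := by
    have h2 := hq'.out.two_le
    rcases (by omega : q = 4 ∨ 5 ≤ q) with h | h
    · exact absurd hq'.out (by rw [h]; decide)
    · exact h
  by_contra hcon
  push Not at hcon
  set K := GaloisField p q
  haveI : Fintype K := Fintype.ofFinite _
  have hQ : Fintype.card K = p ^ q := by
    rw [← Nat.card_eq_fintype_card]; exact GaloisField.card p q hq'.out.ne_zero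
  set U : Finset K := Finset.univ.filter fun a => Algebra.norm (ZMod p) a = 1 with hUdef
  have hmem : ∀ a : K, a ∈ U ↔ Algebra.norm (ZMod p) a = 1 := fun a => by simp [hUdef]
  have h2' : (2 : K) ≠ 0 := fun e => two_ne_zero' p hp2 ((algebraMap (ZMod p) K).injective
    (by rw [map_ofNat, map_zero]; exact e))
  have hb := many_pairs U (fun u hu e => by
      rw [hmem, e, Algebra.norm_zero] at hu; exact zero_ne_one hu)
    (fun u hu v hv => by rw [hmem] at *; rw [map_mul, hu, hv, one_mul])
    (fun u hu => by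
      rw [hmem] at *
      have hu0 : u ≠ 0 := fun e => by rw [e, Algebra.norm_zero] at hu; exact zero_ne_one hu
      rw [← one_mul (Algebra.norm (ZMod p) u⁻¹), ← hu, ← map_mul, mul_inv_cancel₀ hu0, map_one, hu]) h2' ⟨1, (hmem 1).2 (map_one _)⟩
  have hR : (U.filter fun u => 2 - u ∈ U).card ≤ 1 := by
    refine Finset.card_le_one.2 fun a ha b hb => ?_
    rw [Finset.mem_filter, hmem, hmem] at ha hb
    rw [hcon a ha, hcon b hb]
  have hcardU : (p : ℝ) ^ (q - 1) ≤ U.card := by
    have hker : U.card = Nat.card (Units.map (Algebra.norm (ZMod p) (S := K))).ker := by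
      rw [← Nat.card_eq_finsetCard]
      refine Nat.card_congr ⟨fun a => ⟨Units.mk0 (a : K) (fun e => by
          have := (hmem _).1 a.2; rw [e, Algebra.norm_zero] at this; exact zero_ne_one this),
          Units.ext ((hmem _).1 a.2)⟩,
        fun u => ⟨(u.1 : K), (hmem _).2 (congrArg Units.val u.2)⟩,
        fun a => rfl, fun u => Subtype.ext (Units.ext rfl)⟩
    have h3 := (Units.map (Algebra.norm (ZMod p) (S := K))).ker.card_eq_card_quotient_mul_card_subgroup
    rw [Nat.card_congr (QuotientGroup.quotientKerEquivOfSurjective _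
      (FiniteField.unitsMap_norm_surjective (ZMod p) K)).toEquiv, Nat.card_units, Nat.card_units,
      Nat.card_zmod, Nat.card_eq_fintype_card (α := K), hQ, ← hker] at h3
    have h4 : p ^ (q - 1) ≤ U.card := by
      have hp1 := hp.out.two_le
      have hq1 : p ^ q = p ^ (q - 1) * p := by rw [← pow_succ]; congr 1; omega
      have hone : 1 ≤ p ^ (q - 1) := Nat.one_le_pow _ _ (by omega)
      by_contra hlt
      push Not at hlt
      set P := p ^ (q - 1) with hP
      set k := p - 1 with hk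
      have h5 : k * U.card ≤ k * (P - 1) := Nat.mul_le_mul_left _ (by omega)
      rw [Nat.mul_sub, mul_one] at h5
      have h6 : k * P + P = p ^ q := by
        rw [hq1, mul_comm P, show p = k + 1 by omega, add_mul, one_mul]
      have h7 : k ≤ k * P := Nat.le_mul_of_pos_right _ (by omega)
      omega
    exact_mod_cast h4
  rw [hQ] at hb
  push_cast at hb
  have hR' : ((U.filter fun u => 2 - u ∈ U).card : ℝ) ≤ 1 := by exact_mod_cast hR
  set s := Real.sqrt ((p : ℝ) ^ q) with hs
  have hs0 : 0 ≤ s := Real.sqrt_nonneg _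
  have hss : s * s = (p : ℝ) ^ q := Real.mul_self_sqrt (by positivity)
  set t := (p : ℝ) ^ (q - 2) with ht
  have hp3 : (3 : ℝ) ≤ p := by
    have h2 := hp.out.two_le
    exact_mod_cast (show 3 ≤ p by omega)
  have ht1 : (3 : ℝ) ≤ t := hp3.trans (le_self_pow₀ (by linarith) (by omega))
  have hQpos : (0 : ℝ) < (p : ℝ) ^ q := by positivity
  have hUsq : (p : ℝ) ^ q * t ≤ (U.card : ℝ) ^ 2 := by
    refine le_trans (le_of_eq ?_) (pow_le_pow_left₀ (by positivity) hcardU 2)
    rw [ht, ← pow_add, ← pow_mul]; congr 1; omega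
  have h7 : t ≤ 1 + s := by
    refine le_of_mul_le_mul_left (hUsq.trans (hb.trans ?_)) hQpos
    exact mul_le_mul_of_nonneg_left (by linarith) hQpos.le
  have h8 : (p : ℝ) ^ q * p ≤ t * t := by
    rw [ht, ← pow_succ, ← pow_add]
    exact pow_le_pow_right₀ (by linarith) (by omega)
  have h9 : (t - 1) * (t - 1) ≤ (p : ℝ) ^ q := by
    rw [← hss]
    exact mul_self_le_mul_self (by linarith) (by linarith)
  nlinarith [h8, h9, ht1, hp3, hQpos]

end Cfsg.Lib.NormPair
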